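import Cfsg.Agent.H883.C7.NIface

/-!
# Single reflections in one slot of a tensor power, even dimension, at least three slots (helper829, task 1880)

* `exists_conj_refl` : reflections at vectors of proportional norm `q y = c ^ 2 * q x` are conjugate in `O`;
* `mem_E_of_sum` : a product of reflections at pairwise orthogonal vectors which come in pairs of proportional norm;
* `slE_refl_mem_E`.
-/

set_option autoImplicit false
set_option linter.unusedSectionVars false

namespace Cfsg.Agent.H829.C7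

open QuadraticMap hiding proj
open Cfsg.Agent.LieClassical.OrthCore Cfsg.Agent.LieClassical.OrthTrans
open Cfsg.Agent.H882.Ten Cfsg.Agent.LieClassical.OrthFinite Cfsg.Agent.H883.C7

section one

variable {F : Type*} {V : Type*} [Field F] [AddCommGroup V] [Module F V] {Q : QuadraticForm F V}

theorem refl_congr {v w : V} (hv : Q v ≠ 0) (hw : Q w ≠ 0) (h : v = w) : refl Q v hv = refl Q w hw := by
  subst h; rfl

/-- Reflections at vectors of equal norm are conjugate. -/
theorem exists_conj_refl_eq (h2 : (2 : F) ≠ 0) {x y : V} (hx : Q x ≠ 0) (hy : Q y ≠ 0) (h : Q x = Q y) :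
    ∃ g ∈ O Q, refl Q y hy = g * refl Q x hx * g⁻¹ := by
  have hsum : Q (y - x) + Q (y + x) = 4 * Q y := by
    rw [sub_eq_add_neg, Q_add, Q_add, QuadraticMap.map_neg, polar_neg_right, h]
    ring
  have h4 : (4 : F) ≠ 0 := by
    have : (4 : F) = 2 * 2 := by norm_num
    rw [this]; exact mul_ne_zero h2 h2
  by_cases hd : Q (y - x) = 0
  · have hd' : Q (y + x) ≠ 0 := by
      rw [hd, zero_add] at hsum
      rw [hsum]; exact mul_ne_zero h4 hy
    have hd'' : Q (y - (-x)) ≠ 0 := by rwa [sub_neg_eq_add]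
    have hx' : Q (-x) = Q y := by rw [QuadraticMap.map_neg, h]
    have h1 : refl Q (y - (-x)) hd'' y = -x := refl_sub_apply hx' hd''
    have h3 : Q (refl Q (y - (-x)) hd'' y) ≠ 0 := by rw [h1, QuadraticMap.map_neg]; exact hx
    have h5 := refl_conj (refl_mem_O hd'') hy h3
    have h6 : refl Q (refl Q (y - (-x)) hd'' y) h3 = refl Q x hx := by
      have hm : Q ((-1 : F) • x) ≠ 0 := by rw [neg_one_smul, QuadraticMap.map_neg]; exact hx
      rw [← refl_smul hx (neg_ne_zero.2 one_ne_zero) hm]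
      exact refl_congr _ _ (by rw [h1, neg_one_smul])
    refine ⟨refl Q (y - (-x)) hd'', refl_mem_O hd'', ?_⟩
    rw [← h6, ← h5, refl_inv]
    have := refl_mul_self hd''
    calc refl Q y hy = 1 * refl Q y hy * 1 := by group
      _ = _ := by rw [← this]; group
  · have h1 : refl Q (y - x) hd y = x := refl_sub_apply h hd
    have h3 : Q (refl Q (y - x) hd y) ≠ 0 := by rw [h1]; exact hx
    have h5 := refl_conj (refl_mem_O hd) hy h3
    have h6 : refl Q (refl Q (y - x) hd y) h3 = refl Q x hx := refl_congr _ _ h1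
    refine ⟨refl Q (y - x) hd, refl_mem_O hd, ?_⟩
    rw [← h6, ← h5, refl_inv]
    have := refl_mul_self hd
    calc refl Q y hy = 1 * refl Q y hy * 1 := by group
      _ = _ := by rw [← this]; group

/-- Reflections at vectors of proportional norm are conjugate. -/
theorem exists_conj_refl (h2 : (2 : F) ≠ 0) {x y : V} (hx : Q x ≠ 0) (hy : Q y ≠ 0) {c : F}
    (h : Q y = c ^ 2 * Q x) : ∃ g ∈ O Q, refl Q y hy = g * refl Q x hx * g⁻¹ := by
  have hc : c ≠ 0 := by
    rintro rfl
    apply hy
    rw [h]; ring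
  have e : Q (c • x) = Q y := by rw [QuadraticMap.map_smul, h, smul_eq_mul, pow_two]
  have hx' : Q (c • x) ≠ 0 := by rw [e]; exact hy
  obtain ⟨g, hg, h1⟩ := exists_conj_refl_eq h2 hx' hy e
  exact ⟨g, hg, by rw [h1, refl_smul hx hc]⟩

/-- the class of a reflection in the abelianization of the isometry group -/
noncomputable def rc (Q : QuadraticForm F V) (v : V) (hv : Q v ≠ 0) : Abelianization (O Q) :=
  Abelianization.of ⟨refl Q v hv, refl_mem_O hv⟩

theorem rc_sq {v : V} (hv : Q v ≠ 0) : rc Q v hv * rc Q v hv = 1 := by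
  unfold rc
  rw [← map_mul, ← map_one Abelianization.of]
  congr 1
  exact Subtype.ext (refl_mul_self hv)

theorem conj_comm' {A : Type*} [CommGroup A] (a b : A) : a * b * a⁻¹ = b := by
  rw [mul_comm a b, mul_inv_cancel_right]

theorem rc_eq (h2 : (2 : F) ≠ 0) {x y : V} (hx : Q x ≠ 0) (hy : Q y ≠ 0) {c : F} (h : Q y = c ^ 2 * Q x) :
    rc Q y hy = rc Q x hx := by
  obtain ⟨g, hg, h1⟩ := exists_conj_refl h2 hx hy h
  have e : (⟨refl Q y hy, refl_mem_O hy⟩ : O Q) = ⟨g, hg⟩ * ⟨refl Q x hx, refl_mem_O hx⟩ * (⟨g, hg⟩ : O Q)⁻¹ :=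
    Subtype.ext h1
  unfold rc
  rw [e, map_mul, map_mul, map_inv]
  exact conj_comm' _ _

/-- **Products of reflections at pairwise orthogonal vectors which come in pairs.** -/
theorem mem_E_of_sum [FiniteDimensional F V] (h2 : (2 : F) ≠ 0) (hG : Good Q) {P : Type*} [Fintype P] [DecidableEq P]
    (v : P → V) (hv : ∀ p, Q (v p) ≠ 0) (ho : ∀ p p', p ≠ p' → polar Q (v p) (v p') = 0) (τ : P → P)
    (hτ : ∀ p, τ (τ p) = p) (hτ' : ∀ p, τ p ≠ p) (c : P → F) (hc : ∀ p, Q (v (τ p)) = c p ^ 2 * Q (v p))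
    {g : V ≃ₗ[F] V} (hg : ∀ w, g w = w - ∑ p, ((Q (v p))⁻¹ * polar Q (v p) w) • v p) : g ∈ E Q := by
  have key : ∀ s : Finset P, ∃ h : O Q, Abelianization.of h = ∏ p ∈ s, rc Q (v p) (hv p) ∧
      ∀ w, (h : V ≃ₗ[F] V) w = w - ∑ p ∈ s, ((Q (v p))⁻¹ * polar Q (v p) w) • v p := by
    intro s
    induction s using Finset.induction_on with
    | empty => exact ⟨1, by simp, fun w => by simp⟩
    | insert a s ha ih =>
      obtain ⟨h, h1, h3⟩ := ih
      refine ⟨⟨refl Q (v a) (hv a), refl_mem_O (hv a)⟩ * h, ?_, ?_⟩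
      · rw [map_mul, h1, Finset.prod_insert ha]; rfl
      · intro w
        show refl Q (v a) (hv a) ((h : V ≃ₗ[F] V) w) = _
        have h4 : polar Q (v a) (∑ p ∈ s, ((Q (v p))⁻¹ * polar Q (v p) w) • v p) = 0 := by
          have e1 : polar Q (v a) (∑ p ∈ s, ((Q (v p))⁻¹ * polar Q (v p) w) • v p) =
              polarBilin Q (v a) (∑ p ∈ s, ((Q (v p))⁻¹ * polar Q (v p) w) • v p) := rfl
          rw [e1, map_sum]
          refine Finset.sum_eq_zero fun p hp => ?_
          rw [map_smul, polarBilin_apply_apply, ho a p (fun h => ha (h ▸ hp)), smul_zero]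
        rw [refl_apply, h3, Finset.sum_insert ha, polar_sub_right, h4, sub_zero]
        abel
  obtain ⟨h, h1, h3⟩ := key Finset.univ
  have h4 : (h : V ≃ₗ[F] V) = g := by
    refine LinearEquiv.ext fun w => ?_
    rw [h3, hg]
  have h5 : ∏ p, rc Q (v p) (hv p) = 1 := by
    refine Finset.prod_involution (fun p _ => τ p) ?_ (fun p _ _ => hτ' p) (fun p _ => Finset.mem_univ _)
      (fun p _ => hτ p)
    intro p _
    rw [rc_eq h2 (hv p) (hv (τ p)) (hc p)]
    exact rc_sq (hv p)
  rw [h5] at h1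
  have h6 : h ∈ commutator (O Q) := by
    rw [← Abelianization.ker_of]
    exact h1
  rw [← h4, ← hG.commutator_eq_E, ← Subgroup.map_subtype_commutator]
  exact ⟨h, h6, rfl⟩

/-- An orthogonal basis. -/
theorem exists_orth [FiniteDimensional F V] (h2 : (2 : F) ≠ 0) (hQ : Nondeg Q) :
    ∃ u : Fin (Module.finrank F V) → V, (∀ r, Q (u r) ≠ 0) ∧ (∀ r s, r ≠ s → polar Q (u r) (u s) = 0) ∧
      ∀ x, ∑ r, ((polar Q (u r) (u r))⁻¹ * polar Q (u r) x) • u r = x := by
  have : Invertible (2 : F) := invertibleOfNonzero h2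
  have hs : (polarBilin Q).IsSymm := ⟨fun x y => by
    rw [RingHom.id_apply, polarBilin_apply_apply, polarBilin_apply_apply, polar_comm]⟩
  obtain ⟨v, hv⟩ := LinearMap.BilinForm.exists_orthogonal_basis hs
  have ho : ∀ r s, r ≠ s → polar Q (v r) (v s) = 0 := fun r s hrs => hv hrs
  have hne : ∀ r, polar Q (v r) (v r) ≠ 0 := by
    intro r hr
    refine v.ne_zero r (hQ _ fun y => ?_)
    have e1 : polar Q (v r) y = polarBilin Q (v r) y := rfl
    rw [e1, ← v.sum_repr y, map_sum]
    refine Finset.sum_eq_zero fun s _ => ?_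
    rw [map_smul, polarBilin_apply_apply]
    by_cases h : r = s
    · subst h; rw [hr, smul_zero]
    · rw [ho r s h, smul_zero]
  refine ⟨v, fun r h => hne r ((Q_zero_iff h2 _).1 h), ho, fun x => ?_⟩
  have e2 : ∀ r, (polar Q (v r) (v r))⁻¹ * polar Q (v r) x = v.repr x r := by
    intro r
    have e1 : polar Q (v r) x = polarBilin Q (v r) x := rfl
    conv_lhs => rw [e1, ← v.sum_repr x, map_sum]
    rw [Finset.sum_eq_single r]
    · rw [map_smul, polarBilin_apply_apply, smul_eq_mul, mul_comm, mul_assoc, mul_inv_cancel₀ (hne r), mul_one]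
    · intro s _ hs
      rw [map_smul, polarBilin_apply_apply, ho r s (Ne.symm hs), smul_zero]
    · intro h; exact absurd (Finset.mem_univ _) h
  rw [Finset.sum_congr rfl fun r _ => by rw [e2 r]]
  exact v.sum_repr x

end one

section two

variable {F : Type*} {U : Type*} {W : Type*} {V : Type*} [Field F] [AddCommGroup U] [Module F U]
  [AddCommGroup W] [Module F W] [AddCommGroup V] [Module F V] {t : U →ₗ[F] W →ₗ[F] V} {QU : QuadraticForm F U}
  {QW : QuadraticForm F W} {Q : QuadraticForm F V}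

/-- A reflection of the second factor as a sum over an orthogonal basis of the first factor. -/
theorem rW_refl_sum (S : TSt t QU QW Q) {P : Type*} [Fintype P] (e : P → U) (he : ∀ p, QU (e p) ≠ 0)
    (hsum : ∀ a, ∑ p, ((polar QU (e p) (e p))⁻¹ * polar QU (e p) a) • e p = a) {y : W} (hy : QW y ≠ 0) (w : V) :
    rW S.ten (refl QW y hy) w = w - ∑ p, ((Q (t (e p) y))⁻¹ * polar Q (t (e p) y) w) • t (e p) y := by
  have key : ((rW S.ten (refl QW y hy) : V ≃ₗ[F] V) : V →ₗ[F] V) =
      LinearMap.id - ∑ p, (Q (t (e p) y))⁻¹ • (polarBilin Q (t (e p) y)).smulRight (t (e p) y) := by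
    refine ext_t S.ten fun a x => ?_
    rw [LinearMap.sub_apply, LinearMap.sum_apply, LinearMap.id_apply, LinearEquiv.coe_coe, rW_apply, refl_apply]
    have h1 : ∀ p, ((Q (t (e p) y))⁻¹ • (polarBilin Q (t (e p) y)).smulRight (t (e p) y)) (t a x) =
        ((QW y)⁻¹ * polar QW y x) • t (((polar QU (e p) (e p))⁻¹ * polar QU (e p) a) • e p) y := by
      intro p
      rw [LinearMap.smul_apply, LinearMap.smulRight_apply, polarBilin_apply_apply, S.pol, S.Q_t, map_smul,
        LinearMap.smul_apply, smul_smul, smul_smul, polar_self']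
      congr 1
      have := he p
      have h2 := S.two
      field_simp
    rw [Finset.sum_congr rfl fun p _ => h1 p, ← Finset.smul_sum]
    have h3 : ∑ p, t (((polar QU (e p) (e p))⁻¹ * polar QU (e p) a) • e p) y = t a y := by
      rw [← LinearMap.sum_apply, ← map_sum, hsum]
    rw [h3, map_sub, map_smul]
  have := LinearMap.congr_fun key w
  rw [LinearEquiv.coe_coe] at this
  rw [this, LinearMap.sub_apply, LinearMap.sum_apply, LinearMap.id_apply]
  congr 1
  refine Finset.sum_congr rfl fun p _ => ?_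
  rw [LinearMap.smul_apply, LinearMap.smulRight_apply, polarBilin_apply_apply, smul_smul]

end two

section pairing

/-- The fixed point free involution on the basis tensors. -/
theorem pairing {F : Type*} [Field F] {J : Type*} [Fintype J] [DecidableEq J] {n : ℕ} (hn : Even n) (m1 m2 : J)
    (hm : m1 ≠ m2) (a : Fin n → F) (ha : ∀ r, a r ≠ 0) :
    ∃ (τ : (J → Fin n) → (J → Fin n)) (c : (J → Fin n) → F), (∀ p, τ (τ p) = p) ∧ (∀ p, τ p ≠ p) ∧
      ∀ p, ∏ j, a (τ p j) = c p ^ 2 * ∏ j, a (p j) := by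
  have hrev : ∀ r : Fin n, Fin.rev r ≠ r := by
    intro r h
    have h1 := congrArg Fin.val h
    rw [Fin.val_rev] at h1
    have h2 := r.2
    obtain ⟨k, hk⟩ := hn
    omega
  let τ : (J → Fin n) → (J → Fin n) := fun p =>
    if p m1 = p m2 then (fun j => if j = m1 ∨ j = m2 then Fin.rev (p j) else p j) else (fun j => p (Equiv.swap m1 m2 j))
  have hτ1 : ∀ p, p m1 = p m2 → τ p = fun j => if j = m1 ∨ j = m2 then Fin.rev (p j) else p j := fun p h => if_pos h
  have hτ2 : ∀ p, p m1 ≠ p m2 → τ p = fun j => p (Equiv.swap m1 m2 j) := fun p h => if_neg h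
  refine ⟨τ, fun p => if p m1 = p m2 then a (Fin.rev (p m1)) / a (p m1) else 1, ?_, ?_, ?_⟩
  · intro p
    by_cases h : p m1 = p m2
    · have h1 : (τ p) m1 = (τ p) m2 := by rw [hτ1 p h]; simp [h]
      rw [hτ1 _ h1, hτ1 p h]
      funext j
      by_cases hj : j = m1 ∨ j = m2
      · simp only [if_pos hj, Fin.rev_rev]
      · simp only [if_neg hj]
    · have h1 : (τ p) m1 ≠ (τ p) m2 := by
        rw [hτ2 p h]
        simp only [Equiv.swap_apply_left, Equiv.swap_apply_right]
        exact Ne.symm h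
      rw [hτ2 _ h1, hτ2 p h]
      funext j
      simp only [Equiv.swap_apply_self]
  · intro p hp
    by_cases h : p m1 = p m2
    · have h1 := congrFun hp m1
      rw [hτ1 p h] at h1
      simp only [true_or, if_true] at h1
      exact hrev _ h1
    · have h1 := congrFun hp m1
      rw [hτ2 p h] at h1
      simp only [Equiv.swap_apply_left] at h1
      exact h h1.symm
  · intro p
    by_cases h : p m1 = p m2
    · simp only [if_pos h, hτ1 p h]
      have h1 : ∀ j, a (if j = m1 ∨ j = m2 then Fin.rev (p j) else p j) =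
          (if j = m1 ∨ j = m2 then a (Fin.rev (p m1)) / a (p m1) else 1) * a (p j) := by
        intro j
        by_cases hj : j = m1 ∨ j = m2
        · rw [if_pos hj, if_pos hj]
          have : p j = p m1 := by rcases hj with rfl | rfl; exacts [rfl, h.symm]
          rw [this, div_mul_cancel₀ _ (ha _)]
        · rw [if_neg hj, if_neg hj, one_mul]
      rw [Finset.prod_congr rfl fun j _ => h1 j, Finset.prod_mul_distrib]
      congr 1
      rw [← Finset.prod_subset (Finset.subset_univ {m1, m2})]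
      · rw [Finset.prod_pair hm]
        simp [pow_two]
      · intro j _ hj
        rw [Finset.mem_insert, Finset.mem_singleton] at hj
        exact if_neg hj
    · simp only [if_neg h, hτ2 p h, one_pow, one_mul]
      exact Equiv.prod_comp (Equiv.swap m1 m2) (fun j => a (p j))

end pairing

section three

variable {F : Type*} [Field F] {κ : Type*} [Fintype κ] [DecidableEq κ] {ι : Type*} [Fintype ι] [DecidableEq ι]

/-- Expansion in an orthogonal basis of pure tensors. -/
theorem tp_expand {q : QuadraticForm F (κ → F)} (h2 : (2 : F) ≠ 0) {n : ℕ} (u : Fin n → (κ → F))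
    (hx : ∀ x, ∑ r, ((polar q (u r) (u r))⁻¹ * polar q (u r) x) • u r = x) (a : (ι → κ) → F) :
    ∑ p : ι → Fin n, ((polar (QT q ι) (tp fun i => u (p i)) (tp fun i => u (p i)))⁻¹ *
      polar (QT q ι) (tp fun i => u (p i)) a) • tp (fun i => u (p i)) = a := by
  have key : ∑ p : ι → Fin n, (polar (QT q ι) (tp fun i => u (p i)) (tp fun i => u (p i)))⁻¹ •
      (polarBilin (QT q ι) (tp fun i => u (p i))).smulRight (tp fun i => u (p i)) = LinearMap.id := by
    refine tp_ext fun x => ?_
    rw [LinearMap.sum_apply, LinearMap.id_apply]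
    have h1 : ∀ p : ι → Fin n, ((polar (QT q ι) (tp fun i => u (p i)) (tp fun i => u (p i)))⁻¹ •
        (polarBilin (QT q ι) (tp fun i => u (p i))).smulRight (tp fun i => u (p i))) (tp x) =
        tpM F ι κ (fun i => ((polar q (u (p i)) (u (p i)))⁻¹ * polar q (u (p i)) (x i)) • u (p i)) := by
      intro p
      rw [tpM_apply, tp_smul_all, LinearMap.smul_apply, LinearMap.smulRight_apply, polarBilin_apply_apply,
        polar_tp h2, polar_tp h2, smul_smul, ← Finset.prod_inv_distrib, ← Finset.prod_mul_distrib]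
    rw [Finset.sum_congr rfl fun p _ => h1 p,
      ← (tpM F ι κ).map_sum (fun i r => ((polar q (u r) (u r))⁻¹ * polar q (u r) (x i)) • u r), tpM_apply]
    congr 1
    funext i
    exact hx (x i)
  have h3 := LinearMap.congr_fun key a
  rw [LinearMap.sum_apply, LinearMap.id_apply] at h3
  conv_rhs => rw [← h3]
  refine Finset.sum_congr rfl fun p _ => ?_
  rw [LinearMap.smul_apply, LinearMap.smulRight_apply, polarBilin_apply_apply, smul_smul]

/-- **Reflections in one slot, even dimension, at least three slots.** -/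
theorem slE_refl_mem_E_even {q : QuadraticForm F (κ → F)} (h2 : (2 : F) ≠ 0) (hq : Nondeg q)
    (heven : Even (Fintype.card κ)) (hG : Good (QT q ι)) (ht : 3 ≤ Fintype.card ι) (i : ι) {y : κ → F}
    (hy : q y ≠ 0) : slE i (refl q y hy) ∈ E (QT q ι) := by
  classical
  have S := tst (ι := ι) h2 hq i
  obtain ⟨u, hu, ho, hx⟩ := exists_orth h2 hq
  have hn : Even (Module.finrank F (κ → F)) := by rwa [Module.finrank_fintype_fun_eq_card]
  -- two further slots
  have hc : 1 < Fintype.card {j // j ≠ i} := by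
    have h1 : Fintype.card {j // j ≠ i} = Fintype.card ι - 1 := by
      rw [Fintype.card_subtype_compl, Fintype.card_subtype_eq]
    omega
  obtain ⟨m1, m2, hm⟩ := Fintype.exists_pair_of_one_lt_card hc
  have ha : ∀ r, polar q (u r) (u r) ≠ 0 := fun r h => hu r ((Q_zero_iff h2 _).2 h)
  obtain ⟨τ, c, hτ, hτ', hcc⟩ := pairing hn m1 m2 hm (fun r => polar q (u r) (u r)) ha
  obtain ⟨e, he⟩ : ∃ e : ({j // j ≠ i} → Fin (Module.finrank F (κ → F))) → (({j // j ≠ i} → κ) → F),
      e = fun p => tp (fun j => u (p j)) := ⟨_, rfl⟩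
  have hQe : ∀ p, QT q {j // j ≠ i} (e p) = 2⁻¹ * ∏ j, polar q (u (p j)) (u (p j)) := by
    intro p
    rw [he, Q_eq_half h2, polar_tp h2]
  have hQe0 : ∀ p, QT q {j // j ≠ i} (e p) ≠ 0 := by
    intro p
    rw [hQe]
    exact mul_ne_zero (inv_ne_zero h2) (Finset.prod_ne_zero_iff.2 fun j _ => ha _)
  have hg := rW_refl_sum S e hQe0 (fun a => by rw [he]; exact tp_expand h2 u hx a) hy
  rw [slE_eq_rW]
  refine mem_E_of_sum h2 hG (fun p => ten F κ i (e p) y) ?_ ?_ τ hτ hτ' c ?_ hg
  · intro p
    rw [S.Q_t]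
    exact mul_ne_zero h2 (mul_ne_zero (hQe0 p) hy)
  · intro p p' hp
    rw [S.pol, he]
    obtain ⟨j, hj⟩ := Function.ne_iff.1 hp
    rw [polar_tp h2, Finset.prod_eq_zero (Finset.mem_univ j) (ho _ _ hj), zero_mul]
  · intro p
    rw [S.Q_t, S.Q_t, hQe, hQe, hcc p]
    ring

/-- **Task R4.** -/
theorem slE_refl_mem_E [Finite F] {q : QuadraticForm F (κ → F)} (H : Hyp7 q) (hk : Fintype.card κ = 4)
    (ht : 3 ≤ Fintype.card ι) (i : ι) {y : κ → F} (hy : q y ≠ 0) : slE i (refl q y hy) ∈ E (QT q ι) :=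
  slE_refl_mem_E_even H.two H.nd (by rw [hk]; decide) (H.good (by omega)) ht i hy

end three

end Cfsg.Agent.H829.C7
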