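import Cfsg.Agent.H883.C7.LIface
import Cfsg.Agent.H829.C7.SlRefl
import Cfsg.Agent.H734.C7.OpA

/-!
# Thin overgroups, slots of dimension four and minus type: the radical (helper829, task 1881)
-/

set_option autoImplicit false
set_option linter.unusedSectionVars false
set_option linter.unusedSimpArgs false

namespace Cfsg.Agent.H829.C7

open QuadraticMap hiding proj
open Cfsg.Agent.LieClassical.OrthCore Cfsg.Agent.LieClassical.OrthTrans
open Cfsg.Agent.H882.Ten Cfsg.Agent.LieClassical.OrthFinite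
open Cfsg.Agent.H883.C7
open Cfsg.Agent.H734.C7 (E2 E2_eq E2_par exists_two)
open scoped commutatorElement

section one

variable {F : Type*} {V : Type*} [Field F] [AddCommGroup V] [Module F V] {Q : QuadraticForm F V}

theorem nn_add' (u x y : V) : nn Q u (x + y) = nn Q u x + nn Q u y := by
  refine LinearMap.ext fun v => ?_
  simp only [LinearMap.add_apply, nn_apply, polar_add_left]
  module

theorem nn_sub' (u x y : V) : nn Q u (x - y) = nn Q u x - nn Q u y := by
  refine LinearMap.ext fun v => ?_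
  simp only [LinearMap.sub_apply, nn_apply, polar_sub_left]
  module

theorem nn_neg' (u x : V) : nn Q u (-x) = - nn Q u x := by
  refine LinearMap.ext fun v => ?_
  simp only [LinearMap.neg_apply, nn_apply, polar_neg_left]
  module

/-- Conjugation by a Siegel element. -/
theorem cj_siegel' {u y : V} (hu : Q u = 0) (hy : polar Q u y = 0) (T : Module.End F V) :
    cj (siegel Q u y hu hy) T =
      (1 + nn Q u y - Q y • om Q u) * T * (1 - nn Q u y - Q y • om Q u) := by
  rw [cj_eq_iff, siegel_eq hu hy]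
  have h1 := nn_sq hu hy
  have h2 := nn_om hu hy
  have h3 := om_nn hu hy
  have h4 := om_om hu
  generalize nn Q u y = n at *
  generalize om Q u = w at *
  have h5 : (1 - n - Q y • w) * (1 + n - Q y • w) = 1 := by
    simp only [mul_add, sub_mul, mul_sub, one_mul, mul_one, smul_mul_assoc, mul_smul_comm, h1, h2, h3, h4]
    module
  rw [mul_assoc ((1 + n - Q y • w) * T), h5, mul_one]

/-- twice the even part as a combination of conjugates -/
theorem cj_E2 {u y : V} (hu : Q u = 0) (hy : polar Q u y = 0) (hy' : polar Q u (-y) = 0) (T : Module.End F V) :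
    cj (siegel Q u y hu hy) T + cj (siegel Q u (-y) hu hy') T - (T + T) = E2 (om Q u) T (nn Q u y) (Q y) := by
  rw [cj_siegel', cj_siegel', nn_neg', QuadraticMap.map_neg, ← sub_eq_add_neg, sub_neg_eq_add, ← E2_eq,
    two_smul]

/-- A self-adjoint operator `T` with `B (v, T v) = 0` for all singular `v` is scalar (anisotropic case). -/
theorem scalar_of_sing (h2 : (2 : F) ≠ 0) (hQ : Nondeg Q) [FiniteDimensional F V] (hd : 4 ≤ Module.finrank F V)
    (h4 : ∀ w x : V, w ≠ 0 → Q w = 0 → Q x = 0 → polar Q w x = 0 → ∃ c : F, x = c • w)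
    {u u' : V} (hyp : Hyp Q u u') (T : Module.End F V)
    (hsym : ∀ x y, polar Q (T x) y = polar Q x (T y)) (hT : ∀ v, Q v = 0 → polar Q v (T v) = 0) :
    ∃ c : F, ∀ v, T v = c • v := by
  have hQ0 : ∀ y, polar Q u y = 0 → polar Q u' y = 0 → y ≠ 0 → Q y ≠ 0 := by
    intro y h1 h3 h0 hq
    obtain ⟨c, rfl⟩ := h4 u y hyp.left_ne hyp.left hq h1
    rw [polar_smul_right, hyp.pair', smul_eq_mul, mul_one] at h3
    rw [h3, zero_smul] at h0
    exact h0 rfl
  -- the basic identity
  have key : ∀ (x x' y : V), Hyp Q x x' → polar Q x y = 0 → polar Q x' y = 0 →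
      polar Q y (T y) = 2 * polar Q x' (T x) * Q y ∧ polar Q x' (T y) = Q y * polar Q y (T x) := by
    intro x x' y hx h1 h3
    have h1' : polar Q y x = 0 := by rw [polar_comm]; exact h1
    have h3' : polar Q y x' = 0 := by rw [polar_comm]; exact h3
    have hv : ∀ y, polar Q x y = 0 → polar Q x' y = 0 → Q (x' + y - Q y • x) = 0 := by
      intro y h1 h3
      have e : x' + y - Q y • x = x' + (y + (-Q y) • x) := by module
      rw [e, Q_add, Q_add, QuadraticMap.map_smul, hx.left, hx.right, polar_add_right, polar_smul_right,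
        polar_smul_right, h3, hx.pair', polar_comm Q y x, h1]
      simp
    have a1 := hT _ (hv y h1 h3)
    have a2 := hT _ (hv (-y) (by rw [polar_neg_right, h1, neg_zero]) (by rw [polar_neg_right, h3, neg_zero]))
    have a3 := hT x hx.left
    have a4 := hT x' hx.right
    have s1 : polar Q x (T x') = polar Q x' (T x) := by rw [← hsym, polar_comm]
    have s2 : polar Q x (T y) = polar Q y (T x) := by rw [← hsym, polar_comm]
    have s3 : polar Q y (T x') = polar Q x' (T y) := by rw [← hsym, polar_comm]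
    rw [QuadraticMap.map_neg] at a2
    simp only [map_add, map_sub, map_neg, map_smul, polar_add_left, polar_add_right, polar_sub_left,
      polar_sub_right, polar_neg_left, polar_neg_right, polar_smul_left, polar_smul_right, smul_eq_mul, a3, a4,
      s1, s2, s3] at a1 a2
    have h22 : (2 : F) * 2 ≠ 0 := mul_ne_zero h2 h2
    refine ⟨?_, ?_⟩
    · have : (2 : F) * (polar Q y (T y) - 2 * polar Q x' (T x) * Q y) = 0 := by linear_combination a1 + a2
      exact sub_eq_zero.1 ((mul_eq_zero.1 this).resolve_left h2)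
    · have : (2 : F) * 2 * (polar Q x' (T y) - Q y * polar Q y (T x)) = 0 := by linear_combination a1 - a2
      exact sub_eq_zero.1 ((mul_eq_zero.1 this).resolve_left h22)
  -- the mixed terms vanish
  have hM : ∀ (x x' y : V), Hyp Q x x' → (∀ y, polar Q x y = 0 → polar Q x' y = 0 → y ≠ 0 → Q y ≠ 0) →
      polar Q x y = 0 → polar Q x' y = 0 → polar Q y (T x) = 0 := by
    intro x x' y hx hQ0 h1 h3
    obtain ⟨y', hy0, hy'⟩ := exists_perp_ne (Q := Q) ![x, x', y] (by omega)
    have g1 : polar Q x y' = 0 := hy' 0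
    have g2 : polar Q x' y' = 0 := hy' 1
    have g3 : polar Q y y' = 0 := hy' 2
    have b1 := (key x x' y hx h1 h3).2
    have b2 := (key x x' y' hx g1 g2).2
    have b3 := (key x x' (y + y') hx (by rw [polar_add_right, h1, g1, add_zero])
      (by rw [polar_add_right, h3, g2, add_zero])).2
    have b4 := (key x x' (y - y') hx (by rw [polar_sub_right, h1, g1, sub_zero])
      (by rw [polar_sub_right, h3, g2, sub_zero])).2
    have q1 : Q (y + y') = Q y + Q y' := by
      have := Q_add (Q := Q) y y'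
      rw [this, g3, add_zero]
    have q2 : Q (y - y') = Q y + Q y' := by
      rw [sub_eq_add_neg]
      have := Q_add (Q := Q) y (-y')
      rw [this, polar_neg_right, g3, QuadraticMap.map_neg, neg_zero, add_zero]
    rw [q1] at b3
    rw [q2] at b4
    simp only [map_add, map_sub, polar_add_left, polar_add_right, polar_sub_left, polar_sub_right] at b3 b4
    have h5 : 2 * Q y' * polar Q y (T x) = 0 := by linear_combination 2 * b1 - b3 - b4
    rcases mul_eq_zero.1 h5 with h5 | h5
    · exact absurd ((mul_eq_zero.1 h5).resolve_left h2) (hQ0 y' g1 g2 hy0)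
    · exact h5
  obtain ⟨c, hc⟩ : ∃ c, c = polar Q u' (T u) := ⟨_, rfl⟩
  have hf : ∀ v, polar Q v (T v) = 2 * c * Q v := by
    intro v
    obtain ⟨y, hy⟩ : ∃ y, y = LieClassical.OrthTrans.proj Q u u' v := ⟨_, rfl⟩
    have h1 : polar Q u y = 0 := by rw [hy]; exact polar_proj_left hyp v
    have h3 : polar Q u' y = 0 := by rw [hy]; exact polar_proj_right hyp v
    have h1' : polar Q y u = 0 := by rw [polar_comm]; exact h1
    have h3' : polar Q y u' = 0 := by rw [polar_comm]; exact h3
    have e : v = y + (polar Q u' v • u + polar Q u v • u') := by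
      rw [hy, LieClassical.OrthTrans.proj]; abel
    have a0 := (key u u' y hyp h1 h3).1
    have a1 := hM u u' y hyp hQ0 h1 h3
    have a2 := hM u' u y hyp.symm (fun y h h' => hQ0 y h' h) h3 h1
    have a3 := hT u hyp.left
    have a4 := hT u' hyp.right
    have s1 : polar Q u (T u') = polar Q u' (T u) := by rw [← hsym, polar_comm]
    have s2 : polar Q u (T y) = polar Q y (T u) := by rw [← hsym, polar_comm]
    have s3 : polar Q u' (T y) = polar Q y (T u') := by rw [← hsym, polar_comm]
    rw [e]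
    generalize polar Q u' v = a at *
    generalize polar Q u v = b at *
    rw [Q_add, Q_add, QuadraticMap.map_smul, QuadraticMap.map_smul, hyp.left, hyp.right]
    simp only [map_add, map_smul, polar_add_left, polar_add_right, polar_smul_left, polar_smul_right,
      smul_eq_mul, a0, a1, a2, a3, a4, s1, s2, s3, h1', h3', hyp.pair, ← hc]
    ring
  refine ⟨c, fun v => ?_⟩
  rw [← sub_eq_zero]
  refine hQ _ fun v' => ?_
  rw [polar_sub_left, polar_smul_left, sub_eq_zero, smul_eq_mul]
  have b1 := hf (v + v')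
  have b2 := hf v
  have b3 := hf v'
  have s1 : polar Q v (T v') = polar Q (T v) v' := (hsym v v').symm
  have s2 : polar Q v' (T v) = polar Q (T v) v' := polar_comm Q _ _
  rw [Q_add] at b1
  simp only [map_add, polar_add_left, polar_add_right, s1, s2] at b1
  have h5 : 2 * (polar Q (T v) v' - c * polar Q v v') = 0 := by linear_combination b1 - b2 - b3
  exact sub_eq_zero.1 ((mul_eq_zero.1 h5).resolve_left h2)

end one

section two

variable {F : Type*} {U : Type*} {W : Type*} {V : Type*} [Field F] [AddCommGroup U] [Module F U]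
  [AddCommGroup W] [Module F W] [AddCommGroup V] [Module F V]
  {t : U →ₗ[F] W →ₗ[F] V} {QU : QuadraticForm F U} {QW : QuadraticForm F W} {Q : QuadraticForm F V}
  {X : Subgroup (V ≃ₗ[F] V)}

/-- `cj k` as a linear map -/
def cjL (k : U ≃ₗ[F] U) : Module.End F U →ₗ[F] Module.End F U where
  toFun := cj k
  map_add' := cj_add' k
  map_smul' := fun c a => cj_smul' k c a

/-- The additive group of the parameters. -/
def radGp (S : TSt t QU QW Q) (X : Subgroup (V ≃ₗ[F] V)) (w : W) : AddSubgroup (W →ₗ[F] U →ₗ[F] U) where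
  carrier := {τ | InR t QW X w τ}
  zero_mem' := ⟨1, X.one_mem, fun u => rfl, fun u z _ => by simp⟩
  neg_mem' := by
    intro τ h
    have h0 : InR t QW X w (0 : W →ₗ[F] U →ₗ[F] U) := ⟨1, X.one_mem, fun u => rfl, fun u z _ => by simp⟩
    have := S.inR_sub h0 h
    rwa [zero_sub] at this
  add_mem' := by
    intro τ τ' h h'
    have h0 : InR t QW X w (0 : W →ₗ[F] U →ₗ[F] U) := ⟨1, X.one_mem, fun u => rfl, fun u z _ => by simp⟩
    have := S.inR_sub h (S.inR_sub h0 h')
    rwa [zero_sub, sub_neg_eq_add] at this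

theorem mem_radGp (S : TSt t QU QW Q) {w : W} {τ : W →ₗ[F] U →ₗ[F] U} :
    τ ∈ radGp S X w ↔ InR t QW X w τ := Iff.rfl

/-- The parameter `ω τ ω`. -/
theorem inR_om [FiniteDimensional F U] (S : TSt t QU QW Q) (hd : 4 ≤ Module.finrank F U)
    (hU : ∀ (a b : U) (ha : QU a = 0) (hb : polar QU a b = 0), rU S.ten (siegel QU a b ha hb) ∈ X)
    {w : W} {u : U} (hu : QU u = 0) (hu0 : u ≠ 0) :
    ∃ r : F, r ≠ 0 ∧ ∀ τ : W →ₗ[F] U →ₗ[F] U, InR t QW X w τ → ∃ τ' : W →ₗ[F] U →ₗ[F] U,
      InR t QW X w τ' ∧ ∀ b, τ' b = r • (om QU u * (τ b : Module.End F U) * om QU u) := by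
  have h8 : (8 : F) ≠ 0 := by
    have : (8 : F) = 2 * 2 * 2 := by norm_num
    rw [this]
    exact mul_ne_zero (mul_ne_zero S.two S.two) S.two
  obtain ⟨x, y, hx, hy, hxy, hqx, hqy⟩ := exists_two S.two S.ndU hd hu hu0
  refine ⟨8 * QU x * QU y, mul_ne_zero (mul_ne_zero h8 hqx) hqy, fun τ hτ => ?_⟩
  have hneg : ∀ z, polar QU u z = 0 → polar QU u (-z) = 0 := fun z hz => by rw [polar_neg_right, hz, neg_zero]
  have hcj : ∀ (z : U) (hz : polar QU u z = 0), (cjL (siegel QU u z hu hz)) ∘ₗ τ ∈ radGp S X w := by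
    intro z hz
    exact S.inR_cj hτ (hU u z hu hz) fun b => rfl
  have hev : ∀ (z : U) (hz : polar QU u z = 0), ∃ τ' ∈ radGp S X w,
      ∀ b, (τ' b : Module.End F U) = E2 (om QU u) (τ b) (nn QU u z) (QU z) := by
    intro z hz
    refine ⟨_, (radGp S X w).sub_mem ((radGp S X w).add_mem (hcj z hz) (hcj (-z) (hneg z hz)))
      ((radGp S X w).add_mem hτ hτ), fun b => ?_⟩
    rw [← cj_E2 hu hz (hneg z hz)]
    rfl
  obtain ⟨t1, ht1, e1⟩ := hev x hx
  obtain ⟨t2, ht2, e2⟩ := hev y hy
  obtain ⟨t3, ht3, e3⟩ := hev (x + y) (by rw [polar_add_right, hx, hy, add_zero])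
  obtain ⟨t4, ht4, e4⟩ := hev (x - y) (by rw [polar_sub_right, hx, hy, sub_zero])
  have q1 : QU (x + y) = QU x + QU y := by
    have := Q_add (Q := QU) x y
    rw [this, hxy, add_zero]
  have q2 : QU (x - y) = QU x + QU y := by
    rw [sub_eq_add_neg]
    have := Q_add (Q := QU) x (-y)
    rw [this, polar_neg_right, hxy, QuadraticMap.map_neg, neg_zero, add_zero]
  refine ⟨t3 + t4 - (t1 + t1) - (t2 + t2), (radGp S X w).sub_mem ((radGp S X w).sub_mem
    ((radGp S X w).add_mem ht3 ht4) ((radGp S X w).add_mem ht1 ht1)) ((radGp S X w).add_mem ht2 ht2), fun b => ?_⟩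
  rw [← E2_par]
  have f3 := e3 b
  have f4 := e4 b
  rw [nn_add', q1] at f3
  rw [nn_sub', q2] at f4
  rw [← f3, ← f4, ← e1 b, ← e2 b]
  rfl

theorem om_symm (u a b : U) : polar QU (om QU u a) b = polar QU a (om QU u b) := by
  rw [om_apply, om_apply, polar_smul_left, polar_smul_right, polar_comm QU a u, smul_eq_mul, smul_eq_mul, mul_comm]

/-- **Two slots**: the parameters are scalar. -/
theorem tau_scalar_two [FiniteDimensional F U] [FiniteDimensional F W] (S : TSt t QU QW Q) (hle : X ≤ O Q)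
    (hd : 4 ≤ Module.finrank F U)
    (hU4 : ∀ w x : U, w ≠ 0 → QU w = 0 → QU x = 0 → polar QU w x = 0 → ∃ c : F, x = c • w)
    (hW4 : ∀ w x : W, w ≠ 0 → QW w = 0 → QW x = 0 → polar QW w x = 0 → ∃ c : F, x = c • w)
    (hU : ∀ (a b : U) (ha : QU a = 0) (hb : polar QU a b = 0), rU S.ten (siegel QU a b ha hb) ∈ X)
    {u u' : U} (hyp : Hyp QU u u') {w : W} (hw : QW w = 0) (hw0 : w ≠ 0)
    (hsg : ∀ (x : W) (hx : polar QW w x = 0), rW S.ten (siegel QW w x hw hx) ∈ X)
    (hZ : ∀ κ, InZ t QW X w κ → κ = 0) {τ : W →ₗ[F] U →ₗ[F] U} (h : InR t QW X w τ) {y : W}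
    (hy : polar QW w y = 0) : ∃ c : F, ∀ v, τ y v = c • v := by
  refine scalar_of_sing S.two S.ndU hd hU4 hyp (τ y)
    (fun a b => tau_symm' S hle hw hw0 hsg hZ h hy a b) fun v hv => ?_
  by_contra hne
  have hv0 : v ≠ 0 := by
    rintro rfl
    rw [polar_zero_left] at hne
    exact hne rfl
  obtain ⟨r, hr, hrτ⟩ := inR_om (X := X) (w := w) S hd hU hv hv0
  obtain ⟨τ', hτ', e'⟩ := hrτ τ h
  obtain ⟨y0, hy0⟩ := riesz S.ndW (r • ((polarBilin QU v) ∘ₗ (LinearMap.applyₗ v) ∘ₗ τ))
  have hy0' : ∀ b, polar QW y0 b = r * polar QU v (τ b v) := fun b => hy0 b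
  -- `τ' = y0 ⊗ ω`
  have e1 : τ' = (polarBilin QW y0).smulRight (om QU v) := by
    refine LinearMap.ext fun b => LinearMap.ext fun a => ?_
    rw [e', LinearMap.smulRight_apply, polarBilin_apply_apply, LinearMap.smul_apply, LinearMap.smul_apply,
      Module.End.mul_apply, Module.End.mul_apply, hy0', om_apply, om_apply, map_smul, polar_smul_right,
      smul_smul, smul_smul, smul_eq_mul]
    congr 1
    ring
  rw [e1] at hτ'
  obtain ⟨g, hg, hgτ⟩ := h
  have hwy0 : polar QW w y0 = 0 := by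
    rw [polar_comm, hy0', S.tau_self hw hw0 hgτ, polar_zero_right, mul_zero]
  have hq0 : QW y0 ≠ 0 := by
    intro h0
    obtain ⟨c, hc⟩ := hW4 w y0 hw0 hw h0 hwy0
    have h1 := hy0' y
    rw [hc, polar_smul_left, hy, smul_zero] at h1
    exact (mul_ne_zero hr hne) h1.symm
  have hyy : polar QW y0 y0 ≠ 0 := by rw [polar_self']; exact mul_ne_zero S.two hq0
  -- conjugate
  obtain ⟨v', hyp'⟩ := LieClassical.OrthTrans.exists_hyp S.ndU hv hv0
  obtain ⟨z, hz1, hz2, hz3⟩ := exists_nonsing_perp S.ndU (by omega) hyp'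
  obtain ⟨k, hk⟩ : ∃ k, k = siegel QU v' z hyp'.right hz2 := ⟨_, rfl⟩
  have hkX : rU S.ten k ∈ X := by rw [hk]; exact hU _ _ _ _
  have hkO : k ∈ O QU := by rw [hk]; exact siegel_mem_O hyp'.right hz2
  have hkv : k v = v + z - QU z • v' := by
    rw [hk, siegel_apply, hyp'.pair', polar_comm QU z v, hz1]
    module
  have hvk : polar QU v (k v) = - QU z := by
    rw [hkv, polar_sub_right, polar_add_right, polar_smul_right, hyp'.polar_left, hz1, hyp'.pair]
    simp
  have hki : ∀ a, k (k⁻¹ a) = a := fun a => LinearEquiv.apply_symm_apply k a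
  have hτ2 : InR t QW X w ((polarBilin QW y0).smulRight (om QU (k v))) := by
    refine S.inR_cj hτ' hkX fun b => ?_
    refine LinearMap.ext fun a => ?_
    rw [cj_apply, LinearMap.smulRight_apply, LinearMap.smulRight_apply, LinearMap.smul_apply,
      LinearMap.smul_apply, om_apply, om_apply, map_smul, map_smul, ← polar_map hkO v (k⁻¹ a), hki]
  have hcom := tau_commute' S hle hw hw0 hZ hwy0 hwy0 hyy hτ' hτ2 (om_symm v) (om_symm (k v)) (k v)
  have hkv0 : QU (k v) = 0 := by
    have := hkO v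
    rw [this, hv]
  rw [om_apply (k v) (k v), polar_self_of_sing hkv0, zero_smul, map_zero, om_apply v (k v), map_smul,
    om_apply (k v) v, polar_comm QU (k v) v, hvk, smul_smul] at hcom
  have h5 := smul_eq_zero.1 hcom.symm
  rcases h5 with h5 | h5
  · exact hz3 (neg_eq_zero.1 (mul_self_eq_zero.1 h5))
  · rw [h5, polar_zero_right] at hvk
    exact hz3 (neg_eq_zero.1 hvk.symm)

end two

section fin

variable {F : Type*} [Field F] {κ : Type*} [Fintype κ] [DecidableEq κ] {ι : Type*} [Fintype ι] [DecidableEq ι]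

/-- **Three slots**: the parameters at nonsingular vectors are scalar. -/
theorem tau_scalar_refl [Finite F] {q : QuadraticForm F (κ → F)} (H : Hyp7 q) (hk : Fintype.card κ = 4)
    (ht : 3 ≤ Fintype.card ι) {M : Subgroup (((ι → κ) → F) ≃ₗ[F] ((ι → κ) → F))} (hM : Over q M) (hT : Thin q M)
    {i : ι} {w : κ → F} (hw : q w = 0) (hw0 : w ≠ 0)
    {τ : (κ → F) →ₗ[F] (({j // j ≠ i} → κ) → F) →ₗ[F] (({j // j ≠ i} → κ) → F)}
    (h : InR (ten F κ i) q M w τ) {y0 : κ → F} (hy0 : q y0 ≠ 0) (hwy0 : polar q w y0 = 0) :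
    ∃ c : F, ∀ u, τ y0 u = c • u := by
  have S := tst (ι := ι) H.two H.nd i
  have hlX : rW S.ten (refl q y0 hy0) ∈ M := by
    rw [← slE_eq_rW]
    exact hM.2 _ (slE_refl_mem_E H hk ht i hy0) (slE_isMono _ _)
  have hyw : polar q y0 w = 0 := by rw [polar_comm]; exact hwy0
  have hlw : refl q y0 hy0 w = w := by rw [refl_apply, hyw]; simp
  have h1 : InR (ten F κ i) q M w (τ - τ ∘ₗ (refl q y0 hy0 : (κ → F) ≃ₗ[F] (κ → F)).toLinearMap) :=
    S.inR_sub h (S.inR_cjW h hlX (refl_mem_O hy0) hlw (fun z => by rw [refl_inv hy0]; rfl))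
  have e : τ - τ ∘ₗ (refl q y0 hy0 : (κ → F) ≃ₗ[F] (κ → F)).toLinearMap =
      (polarBilin q y0).smulRight ((q y0)⁻¹ • τ y0) := by
    refine LinearMap.ext fun z => ?_
    rw [LinearMap.sub_apply, LinearMap.comp_apply, LinearEquiv.coe_coe, refl_apply, map_sub, map_smul,
      LinearMap.smulRight_apply, polarBilin_apply_apply]
    module
  rw [e] at h1
  have hyy : polar q y0 y0 ≠ 0 := by rw [polar_self']; exact mul_ne_zero H.two hy0
  obtain ⟨c, hc⟩ := pair_scalar H.two H.nd H.three (Or.inl (by omega)) (H.good (by omega)) hM hT hw hw0 hwy0 hwy0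
    hyy (fun _ h => h) h1
  refine ⟨q y0 * c, fun u => ?_⟩
  have h6 := LinearMap.congr_fun hc u
  rw [LinearMap.smul_apply, LinearMap.smul_apply, Module.End.one_apply] at h6
  rw [← smul_smul, ← h6, smul_smul, mul_inv_cancel₀ hy0, one_smul]

/-- One slot: the pure tensors. -/
theorem exists_tp [Subsingleton ι] (l : ι) (a : (ι → κ) → F) : ∃ x : κ → F, a = tp (fun _ : ι => x) := by
  refine ⟨fun b => a (fun _ => b), ?_⟩
  funext b
  rw [tp_apply, Fintype.prod_subsingleton _ l]
  congr 1
  funext j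
  rw [Subsingleton.elim j l]

theorem polar_tp_one [Subsingleton ι] {q : QuadraticForm F (κ → F)} (h2 : (2 : F) ≠ 0) (l : ι) (x y : κ → F) :
    polar (QT q ι) (tp (fun _ : ι => x)) (tp (fun _ : ι => y)) = polar q x y := by
  rw [polar_tp h2, Fintype.prod_subsingleton _ l]

theorem QT_tp_one [Subsingleton ι] {q : QuadraticForm F (κ → F)} (h2 : (2 : F) ≠ 0) (l : ι) (x : κ → F) :
    QT q ι (tp (fun _ : ι => x)) = q x := by
  rw [Q_eq_half h2, polar_tp_one h2 l, ← Q_eq_half h2]

theorem siegel_one [Subsingleton ι] {q : QuadraticForm F (κ → F)} (h2 : (2 : F) ≠ 0) (l : ι)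
    (a b : (ι → κ) → F) (ha : QT q ι a = 0) (hb : polar (QT q ι) a b = 0) :
    ∃ (x z : κ → F) (hx : q x = 0) (hz : polar q x z = 0),
      siegel (QT q ι) a b ha hb = slE l (siegel q x z hx hz) := by
  obtain ⟨x, rfl⟩ := exists_tp l a
  obtain ⟨z, rfl⟩ := exists_tp l b
  have hx : q x = 0 := by rw [← QT_tp_one h2 l]; exact ha
  have hz : polar q x z = 0 := by rw [← polar_tp_one h2 l]; exact hb
  refine ⟨x, z, hx, hz, ?_⟩
  refine LinearEquiv.ext fun v => ?_
  obtain ⟨v, rfl⟩ := exists_tp l v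
  have e : ∀ y : κ → F, Function.update (fun _ : ι => v) l y = fun _ => y := by
    intro y
    funext j
    rw [Subsingleton.elim j l, Function.update_self]
  have e2 : ∀ y z : κ → F, tp (fun _ : ι => y + z) = tp (fun _ : ι => y) + tp (fun _ : ι => z) := by
    intro y z
    rw [← e, tp_update_add, e, e]
  have e3 : ∀ (c : F) (y : κ → F), tp (fun _ : ι => c • y) = c • tp (fun _ : ι => y) := by
    intro c y
    rw [← e, tp_update_smul, e]
  rw [slE_tp, e, siegel_apply, siegel_apply, polar_tp_one h2 l, polar_tp_one h2 l, QT_tp_one h2 l]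
  have e4 : v + polar q x v • z - polar q z v • x - (q z * polar q x v) • x =
      v + (polar q x v • z + ((-polar q z v) • x + (-(q z * polar q x v)) • x)) := by module
  rw [e4, e2, e2, e2, e3, e3, e3]
  module

/-- **Task RP4.** -/
theorem radP_four [Finite F] {q : QuadraticForm F (κ → F)} (H : Hyp7 q) (hk : Fintype.card κ = 4)
    (ht : 2 ≤ Fintype.card ι) {M : Subgroup (((ι → κ) → F) ≃ₗ[F] ((ι → κ) → F))} (hM : Over q M)
    (hT : Thin q M) : RadP q M := by
  intro i w hw hw0 g hg τ hgτ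
  have S := tst (ι := ι) H.two H.nd i
  have hG := H.good ht (ι := ι)
  have hsg : ∀ (x : κ → F) (hx : polar q w x = 0), rW S.ten (siegel q w x hw hx) ∈ M := fun x hx => by
    have := hM.siegel_mem H.two hG i hw hx
    rwa [slE_eq_rW] at this
  have hZ : ∀ δ, InZ (ten F κ i) q M w δ → δ = 0 := fun δ hδ => hT.inZ H.two H.nd i hw hw0 hδ
  have hIn : InR (ten F κ i) q M w τ := ⟨g, hg, hgτ⟩
  have hscal : ∀ y, polar q w y = 0 → ∃ c : F, ∀ u, τ y u = c • u := by
    intro y hy
    by_cases hqy : q y = 0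
    · obtain ⟨c, rfl⟩ := H.four hk w y hw0 hw hqy hy
      refine ⟨0, fun u => ?_⟩
      rw [map_smul, LinearMap.smul_apply, S.tau_self hw hw0 hgτ]
      simp
    · by_cases h3 : 3 ≤ Fintype.card ι
      · exact tau_scalar_refl H hk h3 hM hT hw hw0 hIn hqy hy
      · have hc : Fintype.card {j // j ≠ i} = 1 := by
          have h1 : Fintype.card {j // j ≠ i} = Fintype.card ι - 1 := by
            rw [Fintype.card_subtype_compl, Fintype.card_subtype_eq]
          omega
        have hss : Subsingleton {j // j ≠ i} := Fintype.card_le_one_iff_subsingleton.1 hc.le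
        obtain ⟨l⟩ : Nonempty {j // j ≠ i} := Fintype.card_pos_iff.1 (by omega)
        obtain ⟨w', hyp⟩ := LieClassical.OrthTrans.exists_hyp H.nd hw hw0
        have hfr : Module.finrank F (({j // j ≠ i} → κ) → F) = 4 := by
          rw [Module.finrank_fintype_fun_eq_card, Fintype.card_fun, hk, hc, pow_one]
        refine tau_scalar_two S hM.le_O hfr.ge ?_ (H.four hk) ?_ (u := tp fun _ => w) (u' := tp fun _ => w')
          ?_ hw hw0 hsg hZ hIn hy
        · intro a b ha0 ha hb hab
          obtain ⟨x, rfl⟩ := exists_tp l a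
          obtain ⟨z, rfl⟩ := exists_tp l b
          have hx : q x = 0 := by rw [← QT_tp_one H.two l]; exact ha
          have hz : q z = 0 := by rw [← QT_tp_one H.two l]; exact hb
          have hxz : polar q x z = 0 := by rw [← polar_tp_one H.two l]; exact hab
          have hx0 : x ≠ 0 := by
            rintro rfl
            apply ha0
            funext b
            rw [tp_apply]
            exact Finset.prod_eq_zero (Finset.mem_univ l) rfl
          obtain ⟨c, rfl⟩ := H.four hk x z hx0 hx hz hxz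
          refine ⟨c, ?_⟩
          rw [tp_smul_all (fun _ => x) (fun _ => c), Fintype.prod_subsingleton _ l]
        · intro a b ha hb
          obtain ⟨x, z, hx, hz, e⟩ := siegel_one H.two l a b ha hb
          rw [e, ← slE_sub]
          exact hM.siegel_mem H.two hG (l : ι) hx hz
        · exact ⟨by rw [QT_tp_one H.two l]; exact hyp.left, by rw [QT_tp_one H.two l]; exact hyp.right,
            by rw [polar_tp_one H.two l]; exact hyp.pair⟩
  have : Nontrivial (({j // j ≠ i} → κ) → F) := ⟨tp (fun _ => w), 0, tp_ne_zero fun _ => hw0⟩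
  obtain ⟨x, hx, h3⟩ := eq_siegel S hM.le_O (nondeg_QT H.two H.nd) hw hw0 hg hgτ hsg hZ hscal
  exact ⟨x, hx, by rw [slE_eq_rW]; exact h3⟩

theorem refl_mul_mem_comm {V : Type*} [AddCommGroup V] [Module F V] {Q : QuadraticForm F V} (h2 : (2 : F) ≠ 0)
    {x y : V} (hx : Q x ≠ 0) (hy : Q y ≠ 0) (h : Q x = Q y) (hxy : polar Q x y = 0) :
    refl Q x hx * refl Q y hy ∈ ⁅O Q, O Q⁆ := by
  have hd : Q (y - x) ≠ 0 := by
    rw [sub_eq_add_neg, Q_add, QuadraticMap.map_neg, polar_neg_right, polar_comm, hxy, neg_zero, add_zero, h,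
      ← two_mul]
    exact mul_ne_zero h2 hy
  have h1 : refl Q (y - x) hd x = y := by
    have h0 := refl_sub_apply h hd
    have h00 := LinearEquiv.congr_fun (refl_mul_self hd) y
    have h01 : refl Q (y - x) hd (refl Q (y - x) hd y) = y := h00
    rwa [h0] at h01
  have h3 : refl Q y hy = refl Q (y - x) hd * refl Q x hx * (refl Q (y - x) hd)⁻¹ := by
    have h3 : Q (refl Q (y - x) hd x) ≠ 0 := by rw [h1]; exact hy
    rw [refl_conj (refl_mem_O hd) hx h3]
    ext v
    rw [refl_apply, refl_apply, h1]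
  rw [h3]
  have h4 : refl Q x hx * (refl Q (y - x) hd * refl Q x hx * (refl Q (y - x) hd)⁻¹) =
      ⁅refl Q x hx, refl Q (y - x) hd⁆ := by
    rw [commutatorElement_def, refl_inv hx]
    group
  rw [h4]
  exact Subgroup.commutator_mem_commutator (refl_mem_O hx) (refl_mem_O hd)

/-- The parameters of `c = (α ⊗ 1) r` are scalar, given a suitable element of the slot. -/
theorem sp_aux {q : QuadraticForm F (κ → F)} (H : Hyp7 q) [Finite F] (ht : 2 ≤ Fintype.card ι)
    {M : Subgroup (((ι → κ) → F) ≃ₗ[F] ((ι → κ) → F))} (hM : Over q M) (hrad : RadP q M) {j : ι} {w : κ → F}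
    (hw0 : w ≠ 0) (hw : q w = 0) {c : ((ι → κ) → F) ≃ₗ[F] ((ι → κ) → F)} (hc : c ∈ M)
    {α : (({l // l ≠ j} → κ) → F) ≃ₗ[F] (({l // l ≠ j} → κ) → F)} {r : ((ι → κ) → F) ≃ₗ[F] ((ι → κ) → F)}
    {τ : (κ → F) →ₗ[F] (({l // l ≠ j} → κ) → F) →ₗ[F] (({l // l ≠ j} → κ) → F)}
    (hcr : c = rU (isTen F κ j) α * r) (hr : IsR (ten F κ j) q w r τ) {h : (κ → F) ≃ₗ[F] (κ → F)}
    (hh : h ∈ ⁅O q, O q⁆) (hO : h ∈ O q) {c0 : F} (hc0 : c0 ≠ 0) (hhw : h w = c0 • w) {z : κ → F}
    (hz : polar q w z = 0) {e : F} (hhz : h⁻¹ z = e • z) (hne : 1 - c0 * e ≠ 0) :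
    ∃ a : F, ∀ u, τ z u = a • u := by
  have S := tst (ι := ι) H.two H.nd j
  have hhX : rW S.ten h ∈ M := by
    rw [← slE_eq_rW]
    exact hM.2 _ (slE_comm_mem_E H.two (H.good ht) j hh) (slE_isMono _ _)
  obtain ⟨a, ha⟩ := theta_scalar (X := M) S hw hw0 (fun g hg τ hgτ => by
      obtain ⟨x, hx, hgx⟩ := hrad j w hw hw0 g hg τ hgτ
      exact ⟨x, hx, by rw [hgx, slE_eq_rW]⟩) hc hcr hr hhX hO hc0 hhw z hz
  refine ⟨(1 - c0 * e)⁻¹ * a, fun u => ?_⟩
  have h1 := ha u
  rw [hhz, map_smul, LinearMap.smul_apply, smul_smul] at h1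
  rw [← smul_smul, ← h1]
  have h3 : τ z u - (c0 * e) • τ z u = (1 - c0 * e) • τ z u := by module
  rw [h3, smul_smul, inv_mul_cancel₀ hne, one_smul]

theorem sp_four [Finite F] {q : QuadraticForm F (κ → F)} (H : Hyp7 q) (hk : Fintype.card κ = 4)
    (ht : 2 ≤ Fintype.card ι) {M : Subgroup (((ι → κ) → F) ≃ₗ[F] ((ι → κ) → F))} (hM : Over q M)
    (hT : Thin q M) (hrad : RadP q M) : SP q M := by
  intro j w hw0 hw c hc α r τ hcr hr z hz
  have S := tst (ι := ι) H.two H.nd j
  obtain ⟨w', hyp⟩ := LieClassical.OrthTrans.exists_hyp H.nd hw hw0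
  suffices hY : ∀ y, polar q w y = 0 → polar q w' y = 0 → ∃ a : F, ∀ u, τ y u = a • u by
    have e : z = LieClassical.OrthTrans.proj q w w' z + polar q w' z • w := by
      rw [LieClassical.OrthTrans.proj, hz]; module
    obtain ⟨a, ha⟩ := hY _ (polar_proj_left hyp z) (polar_proj_right hyp z)
    refine ⟨a, fun u => ?_⟩
    rw [e, map_add, map_smul, LinearMap.add_apply, LinearMap.smul_apply, ha, S.tau_self hw hw0 hr]
    simp
  intro y h1 h3
  by_cases hF : ∃ c : F, c ≠ 0 ∧ c * c ≠ 1
  · obtain ⟨c', hc', hcc⟩ := hF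
    obtain ⟨h, hh, hO, hhw, -, hfix⟩ := exists_torus hyp hc'
    have hhy : h⁻¹ y = (1 : F) • y := by
      have : h⁻¹ (h y) = y := LinearEquiv.symm_apply_apply h y
      rw [hfix y h1 h3] at this
      rw [this, one_smul]
    refine sp_aux H ht hM hrad hw0 hw hc hcr hr hh hO (mul_ne_zero hc' hc') hhw h1 hhy ?_
    rw [mul_one]
    intro h0
    exact hcc (by linear_combination -h0)
  · push Not at hF
    have hQ0 : ∀ y, polar q w y = 0 → polar q w' y = 0 → y ≠ 0 → q y ≠ 0 := by
      intro y h1 h3 h0 hq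
      obtain ⟨c, rfl⟩ := H.four hk w y hyp.left_ne hyp.left hq h1
      rw [polar_smul_right, hyp.pair', smul_eq_mul, mul_one] at h3
      rw [h3, zero_smul] at h0
      exact h0 rfl
    by_cases hy0 : y = 0
    · refine ⟨0, fun u => ?_⟩
      rw [hy0, map_zero, LinearMap.zero_apply, zero_smul]
    obtain ⟨y', hy0', hy'⟩ := exists_perp_ne (Q := q) ![w, w', y]
      (by rw [Module.finrank_fintype_fun_eq_card]; omega)
    have g1 : polar q w y' = 0 := hy' 0
    have g2 : polar q w' y' = 0 := hy' 1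
    have g3 : polar q y y' = 0 := hy' 2
    have g4 : polar q y' y = 0 := by rw [polar_comm]; exact g3
    have n1 := hQ0 y h1 h3 hy0
    have n2 := hQ0 y' g1 g2 hy0'
    have hsum : q (y + y') ≠ 0 := by
      refine hQ0 _ (by rw [polar_add_right, h1, g1, add_zero]) (by rw [polar_add_right, h3, g2, add_zero]) ?_
      intro h0
      have h4 : polar q y (y + y') = 0 := by rw [h0, polar_zero_right]
      rw [polar_add_right, g3, add_zero, polar_self'] at h4
      exact (mul_ne_zero H.two n1) h4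
    have hqq : q y = q y' := by
      have h4 : (q y - q y') * (q y + q y') = 0 := by linear_combination hF _ n1 - hF _ n2
      rcases mul_eq_zero.1 h4 with h4 | h4
      · exact sub_eq_zero.1 h4
      · exfalso
        apply hsum
        have := Q_add (Q := q) y y'
        rw [this, g3, add_zero, h4]
    have hh := refl_mul_mem_comm H.two n1 n2 hqq g3
    have hO : refl q y n1 * refl q y' n2 ∈ O q := (O q).mul_mem (refl_mem_O n1) (refl_mem_O n2)
    have g5 : polar q y w = 0 := by rw [polar_comm]; exact h1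
    have g6 : polar q y' w = 0 := by rw [polar_comm]; exact g1
    have hhw : (refl q y n1 * refl q y' n2) w = (1 : F) • w := by
      rw [LinearEquiv.mul_apply, refl_apply n2, g6, mul_zero, zero_smul, sub_zero, refl_apply n1, g5, mul_zero,
        zero_smul, sub_zero, one_smul]
    have hhy : (refl q y n1 * refl q y' n2)⁻¹ y = (-1 : F) • y := by
      rw [mul_inv_rev, refl_inv, refl_inv, LinearEquiv.mul_apply, refl_apply n1, polar_self']
      have : (q y)⁻¹ * (2 * q y) = 2 := by
        rw [mul_comm 2, ← mul_assoc, inv_mul_cancel₀ n1, one_mul]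
      rw [this]
      have e : y - (2 : F) • y = (-1 : F) • y := by module
      rw [e, map_smul, refl_apply, g4, mul_zero, zero_smul, sub_zero]
    refine sp_aux H ht hM hrad hw0 hw hc hcr hr hh hO one_ne_zero hhw h1 hhy ?_
    rw [one_mul, sub_neg_eq_add, one_add_one_eq_two]
    exact H.two

end fin

end Cfsg.Agent.H829.C7
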